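import Mathlib

/-!
# The permutation matrix of an `r`-cycle has a large centralizer in `SL_r(F)`

`card_eq_two` : if `r ≥ 3` is prime, `F^×` has no element of order `r`, and in `SL_r(F)` the square
of every element commuting with an element `w` of order `r` is a power of `w`, then `|F| = 2` and
`r = 3`.
-/

set_option autoImplicit false

open Matrix Equiv

namespace Cfsg.Agent.H660.CycleMatrix

variable {F : Type*} [Field F] {r : ℕ}

theorem perm_pow (k : ℕ) : ((finRotate r).permMatrix F) ^ k = ((finRotate r) ^ k).permMatrix F := by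
  induction k with
  | zero => rw [pow_zero, pow_zero, permMatrix_one]
  | succ k ih => rw [pow_succ, ih, pow_succ', permMatrix_mul]

theorem perm_apply (k : ℕ) (i j : Fin r) :
    (((finRotate r).permMatrix F) ^ k) i j = if ((finRotate r) ^ k) i = j then 1 else 0 := by
  rw [perm_pow]
  simp [Equiv.Perm.permMatrix, PEquiv.toMatrix_apply, Equiv.toPEquiv_apply, eq_comm]

theorem rot_pow_zero [NeZero r] (k : ℕ) : (((finRotate r) ^ k) 0 : Fin r).val = k % r := by
  induction k with
  | zero => simp
  | succ k ih =>
    rw [pow_succ', Perm.mul_apply, finRotate_apply]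
    rw [Fin.val_add, ih]
    rcases Nat.lt_or_ge 1 r with h | h
    · have : ((1 : Fin r) : ℕ) = 1 := by
        rw [Fin.val_one']
        exact Nat.mod_eq_of_lt h
      rw [this, Nat.mod_add_mod]
    · have hr : r = 1 := by
        have := NeZero.ne r
        omega
      subst hr
      simp [Nat.mod_one]

theorem rot_pow_self (h2 : 2 ≤ r) : (finRotate r) ^ r = 1 := by
  have hc := isCycle_finRotate_of_le h2
  have h1 := hc.orderOf
  rw [support_finRotate_of_le h2, Finset.card_univ, Fintype.card_fin] at h1
  have h2 := pow_orderOf_eq_one (finRotate r)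
  rwa [h1] at h2

/-- The element of `SL_r(F)`. -/
def W (hr : Odd r) : SpecialLinearGroup (Fin r) F :=
  ⟨(finRotate r).permMatrix F, by
    rw [det_permutation, sign_finRotate]
    obtain ⟨k, rfl⟩ := hr
    simp⟩

theorem W_coe (hr : Odd r) : ((W hr : SpecialLinearGroup (Fin r) F) : Matrix (Fin r) (Fin r) F) =
    (finRotate r).permMatrix F := rfl

theorem orderOf_W (hr : Odd r) (hp : r.Prime) :
    orderOf (W hr : SpecialLinearGroup (Fin r) F) = r := by
  have : Fact r.Prime := ⟨hp⟩
  have : NeZero r := ⟨hp.ne_zero⟩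
  apply orderOf_eq_prime
  · have e : ((finRotate r).permMatrix F) ^ r = 1 := by
      rw [perm_pow, rot_pow_self hp.two_le, permMatrix_one]
    exact Subtype.ext e
  · intro h
    have h1 := congrArg (fun A : SpecialLinearGroup (Fin r) F =>
      (A : Matrix (Fin r) (Fin r) F) 0 0) h
    beta_reduce at h1
    rw [W_coe, ← pow_one ((finRotate r).permMatrix F), perm_apply] at h1
    have h2 : ¬ (((finRotate r) ^ 1) (0 : Fin r) = 0) := by
      intro h3
      have h4 := rot_pow_zero (r := r) 1
      rw [h3, Nat.mod_eq_of_lt hp.one_lt] at h4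
      simp at h4
    rw [if_neg h2] at h1
    simp at h1

/-- Squares of invertible matrices commuting with the permutation matrix. -/
theorem sq_eq [Finite F] (hr : Odd r) (hp : r.Prime) (hgcd : ∀ c : Fˣ, c ^ r = 1 → c = 1)
    (h : ∀ u w : SpecialLinearGroup (Fin r) F, orderOf w = r → u * w = w * u →
      u ^ 2 ∈ Subgroup.zpowers w) (U : Matrix (Fin r) (Fin r) F) (hU : U.det ≠ 0)
    (hc : U * (finRotate r).permMatrix F = (finRotate r).permMatrix F * U) :
    ∃ (l : F) (k : ℕ), U ^ 2 = l • ((finRotate r).permMatrix F) ^ k := by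
  have hinj : Function.Injective (fun c : Fˣ => c ^ r) := by
    intro a b hab
    have h1 : (a * b⁻¹) ^ r = 1 := by
      rw [mul_pow, inv_pow, mul_inv_eq_one]
      exact hab
    exact mul_inv_eq_one.1 (hgcd _ h1)
  have hsurj := Finite.surjective_of_injective hinj
  obtain ⟨c, hc'⟩ := hsurj (Units.mk0 U.det hU)⁻¹
  have hc1 : (c : F) ^ r = (U.det)⁻¹ := by
    have := congrArg (Units.val) hc'
    simpa using this
  have hdet : ((c : F) • U).det = 1 := by
    rw [det_smul, Fintype.card_fin, hc1, inv_mul_cancel₀ hU]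
  set u : SpecialLinearGroup (Fin r) F := ⟨(c : F) • U, hdet⟩ with hu
  have h1 := h u (W hr) (orderOf_W hr hp) (by
    have e : (c : F) • U * (finRotate r).permMatrix F =
        (finRotate r).permMatrix F * ((c : F) • U) := by
      rw [smul_mul_assoc, mul_smul_comm, hc]
    exact Subtype.ext e)
  have hfin : Finite (SpecialLinearGroup (Fin r) F) := inferInstance
  rw [← mem_powers_iff_mem_zpowers] at h1
  obtain ⟨k, hk⟩ := h1
  refine ⟨((c : F)⁻¹) ^ 2, k, ?_⟩
  have h2 : ((finRotate r).permMatrix F) ^ k = ((c : F) • U) ^ 2 :=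
    congrArg Subtype.val hk
  rw [h2]
  rw [smul_pow, smul_smul, ← mul_pow, inv_mul_cancel₀ c.ne_zero, one_pow, one_smul]

theorem card_eq_two [Fintype F] (hp : r.Prime) (h3 : 3 ≤ r)
    (hgcd : ∀ c : Fˣ, c ^ r = 1 → c = 1)
    (h : ∀ u w : SpecialLinearGroup (Fin r) F, orderOf w = r → u * w = w * u →
      u ^ 2 ∈ Subgroup.zpowers w) : Fintype.card F = 2 ∧ r = 3 := by
  classical
  have hr : Odd r := hp.odd_of_ne_two (by omega)
  have : NeZero r := ⟨hp.ne_zero⟩
  set M : Matrix (Fin r) (Fin r) F := (finRotate r).permMatrix F with hM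
  have hmv : ∀ v : Fin r → F, M *ᵥ v = v ∘ (finRotate r) := fun v => permMatrix_mulVec _
  have hent : ∀ (k : ℕ) (a : Fin r), (M ^ k) 0 a = if k % r = a.val then 1 else 0 := by
    intro k a
    rw [hM, perm_apply]
    congr 1
    rw [← rot_pow_zero (r := r) k]
    simp [Fin.ext_iff]
  have hv0 : ((0 : Fin r) : ℕ) = 0 := by simp
  have hrot : ∀ i, ((finRotate r) ^ r) i = i := by
    intro i
    rw [rot_pow_self hp.two_le]
    rfl
  -- first step
  have step : ∀ a : F, a ≠ 0 → a ^ r = -1 := by
    intro a ha
    by_contra hne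
    have hdet : (1 + a • M).det ≠ 0 := by
      intro h0
      obtain ⟨v, hv0, hv⟩ := Matrix.exists_mulVec_eq_zero_iff.2 h0
      apply hv0
      have h1 : ∀ i, v i = (-a) * v (finRotate r i) := by
        intro i
        have := congrFun hv i
        rw [add_mulVec, one_mulVec, smul_mulVec, hmv] at this
        simp only [Pi.add_apply, Pi.smul_apply, Function.comp, Pi.zero_apply, smul_eq_mul] at this
        linear_combination this
      have h2 : ∀ (k : ℕ) (i), v i = (-a) ^ k * v (((finRotate r) ^ k) i) := by
        intro k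
        induction k with
        | zero => intro i; simp
        | succ k ih =>
          intro i
          rw [ih i, h1 (((finRotate r) ^ k) i), pow_succ', pow_succ', Perm.mul_apply]
          ring
      funext i
      have h4 := h2 r i
      rw [hrot, hr.neg_pow] at h4
      have h5 : (1 + a ^ r) * v i = 0 := by linear_combination h4
      rcases mul_eq_zero.1 h5 with h6 | h6
      · exact absurd (by linear_combination h6) hne
      · exact h6
    obtain ⟨l, k, hlk⟩ := sq_eq hr hp hgcd h (1 + a • M) hdet (by
      rw [← hM, add_mul, mul_add, one_mul, mul_one, smul_mul_assoc, mul_smul_comm])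
    have hsq : (1 + a • M) ^ 2 = M ^ 0 + (2 * a) • M ^ 1 + (a ^ 2) • M ^ 2 := by
      rw [sq, add_mul, mul_add, mul_add, one_mul, mul_one, one_mul, smul_mul_smul_comm, pow_zero,
        pow_one, sq M, two_mul, add_smul, sq a]
      abel
    rw [hsq, ← hM] at hlk
    have e0 := congrFun (congrFun hlk 0) 0
    have e2 := congrFun (congrFun hlk 0) (⟨2, by omega⟩ : Fin r)
    simp only [Matrix.add_apply, Matrix.smul_apply, hent, smul_eq_mul, hv0] at e0 e2
    rw [Nat.mod_eq_of_lt (show 0 < r by omega), Nat.mod_eq_of_lt (show 1 < r by omega),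
      Nat.mod_eq_of_lt (show 2 < r by omega)] at e0 e2
    simp only [if_true, one_ne_zero, if_false, OfNat.ofNat_ne_zero, mul_zero, mul_one, add_zero,
      OfNat.zero_ne_ofNat, zero_add, OfNat.one_ne_ofNat] at e0 e2
    by_cases hk : k % r = 0
    · rw [hk] at e2
      simp at e2
      exact ha e2
    · rw [if_neg hk, mul_zero] at e0
      exact one_ne_zero e0
  -- the field has two elements
  have h2F : (2 : F) = 0 := by
    have := step 1 one_ne_zero
    rw [one_pow] at this
    linear_combination this
  have hone : ∀ a : F, a ≠ 0 → a = 1 := by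
    intro a ha
    have h1 := step a ha
    have h4 : a ^ r = 1 := by
      rw [h1]
      linear_combination -h2F
    have h5 := hgcd (Units.mk0 a ha) (by
      apply Units.ext
      simpa using h4)
    simpa using congrArg Units.val h5
  have hcard : Fintype.card F = 2 := by
    have : (Finset.univ : Finset F) = {0, 1} := by
      ext a
      simp only [Finset.mem_univ, Finset.mem_insert, Finset.mem_singleton, true_iff]
      by_cases ha : a = 0
      · exact Or.inl ha
      · exact Or.inr (hone a ha)
    rw [← Finset.card_univ, this, Finset.card_pair zero_ne_one]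
  refine ⟨hcard, ?_⟩
  by_contra hr3
  have hr5 : 5 ≤ r := by
    have : r ≠ 4 := by
      rintro rfl
      revert hp
      decide
    omega
  have hdet : (1 + M + M ^ 2).det ≠ 0 := by
    intro h0
    obtain ⟨v, hv0, hv⟩ := Matrix.exists_mulVec_eq_zero_iff.2 h0
    apply hv0
    have h1 : ∀ i, v i + v (finRotate r i) + v (finRotate r (finRotate r i)) = 0 := by
      intro i
      have := congrFun hv i
      rw [add_mulVec, add_mulVec, one_mulVec, sq, ← mulVec_mulVec, hmv, hmv] at this
      simpa using this
    have h2 : ∀ i, v (((finRotate r) ^ 3) i) = v i := by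
      intro i
      have e1 := h1 i
      have e2 := h1 (finRotate r i)
      show v (finRotate r (finRotate r (finRotate r i))) = v i
      linear_combination e2 - e1
    have h4 : ∀ (k : ℕ) (i), v (((finRotate r) ^ (3 * k)) i) = v i := by
      intro k
      induction k with
      | zero => intro i; simp
      | succ k ih =>
        intro i
        rw [show 3 * (k + 1) = 3 + 3 * k by ring, pow_add, Perm.mul_apply, h2, ih]
    have hcop : Nat.Coprime 3 r := (Nat.coprime_primes Nat.prime_three hp).2 (Ne.symm hr3)
    obtain ⟨k, hk⟩ := Nat.exists_mul_mod_eq_one_of_coprime hcop (by omega)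
    have h5 : (finRotate r) ^ (3 * k) = finRotate r := by
      rw [← Nat.div_add_mod (3 * k) r, hk.2, pow_add, pow_mul, rot_pow_self hp.two_le, one_pow,
        one_mul, pow_one]
    have h6 : ∀ i, v (finRotate r i) = v i := by
      intro i
      have := h4 k i
      rwa [h5] at this
    funext i
    have e1 := h1 i
    rw [h6 (finRotate r i), h6 i] at e1
    show v i = 0
    linear_combination e1 - (v i) * h2F
  obtain ⟨l, k, hlk⟩ := sq_eq hr hp hgcd h (1 + M + M ^ 2) hdet (by
    rw [← hM]
    noncomm_ring)
  have hsq : (1 + M + M ^ 2) ^ 2 = M ^ 0 + (2 : F) • M ^ 1 + (3 : F) • M ^ 2 + (2 : F) • M ^ 3 +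
      M ^ 4 := by
    have : (1 + M + M ^ 2) ^ 2 = M ^ 0 + (M ^ 1 + M ^ 1) + (M ^ 2 + M ^ 2 + M ^ 2) +
        (M ^ 3 + M ^ 3) + M ^ 4 := by noncomm_ring
    rw [this]
    rw [show (2 : F) = 1 + 1 by norm_num, show (3 : F) = 1 + 1 + 1 by norm_num]
    simp only [add_smul, one_smul]
  rw [hsq, ← hM] at hlk
  have e0 := congrFun (congrFun hlk 0) 0
  have e4 := congrFun (congrFun hlk 0) (⟨4, by omega⟩ : Fin r)
  simp only [Matrix.add_apply, Matrix.smul_apply, hent, smul_eq_mul, hv0] at e0 e4
  rw [Nat.mod_eq_of_lt (show 0 < r by omega), Nat.mod_eq_of_lt (show 1 < r by omega),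
    Nat.mod_eq_of_lt (show 2 < r by omega), Nat.mod_eq_of_lt (show 3 < r by omega),
    Nat.mod_eq_of_lt (show 4 < r by omega)] at e0 e4
  norm_num at e0 e4
  by_cases hk : k % r = 0
  · rw [hk] at e4
    simp at e4
  · rw [if_neg hk] at e0
    simp at e0

end Cfsg.Agent.H660.CycleMatrix
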