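import Cfsg.Agent.H660.SporPrimeIndex

/-!
# Subgroups of index 23 of `M23`

* `m23_index` : a subgroup of index 23 of a group isomorphic to `M23` is, under every isomorphism
  onto `Spor.M23`, the stabilizer of one of the 23 points.
-/

set_option autoImplicit false
open Subgroup MulAction Equiv

namespace Cfsg.Agent.H660.M23Point

open Cfsg Cfsg.Agent.NotCT Cfsg.Agent.H660.SporPrimeIndex

/-- **Subgroups of index 23 of `M23` are the point stabilizers**, for a given isomorphism. -/
theorem m23_index_of {T : Type*} [Group T] (e : T ≃* Spor.M23) (H : Subgroup T)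
    (hH : H.index = 23) : ∃ x : Cfsg.GolayPt, x ≠ none ∧
      ∀ t, t ∈ H ↔ ((e t : Spor.M23) : Perm Cfsg.GolayPt) x = x := by
  have hT : Nat.card T = 10200960 := Orders.m23 ⟨e⟩
  have hfin : Finite T := Nat.finite_of_card_ne_zero (by rw [hT]; norm_num)
  have hle : Spor.M23 ≤ Cfsg.M24 := inf_le_left
  let f : T →* Cfsg.M24 := (Subgroup.inclusion hle).comp e.toMonoidHom
  have hf : Function.Injective f := (Subgroup.inclusion_injective hle).comp e.injective
  have hc : Nat.card (H.map f) = 443520 := by
    rw [Nat.card_congr (H.equivMapOfInjective f hf).symm.toEquiv]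
    have h1 := H.card_mul_index
    rw [hH, hT] at h1
    omega
  have hst : H.map f ≤ stabilizer Cfsg.M24 (none : Cfsg.GolayPt) := by
    rintro _ ⟨t, -, rfl⟩
    exact (e t).2.2
  obtain ⟨y, hy, hL⟩ := fr24.exists_fixed none hst hc
  refine ⟨y, hy, fun t => ?_⟩
  constructor
  · intro ht
    have h1 : f t ∈ H.map f := mem_map_of_mem f ht
    rw [hL] at h1
    exact h1.2
  · intro ht
    have h1 : f t ∈ H.map f := by
      rw [hL]
      exact ⟨(e t).2.2, ht⟩
    obtain ⟨s, hs, hst'⟩ := h1
    rw [← hf hst']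
    exact hs

/-- **Subgroups of index 23 of `M23` are the point stabilizers.** -/
theorem m23_index {T : Type*} [Group T] (h : Spor.IsoM23 T) (H : Subgroup T)
    (hH : H.index = 23) : ∃ (e : T ≃* Spor.M23) (x : Cfsg.GolayPt), x ≠ none ∧
      ∀ t, t ∈ H ↔ ((e t : Spor.M23) : Perm Cfsg.GolayPt) x = x := by
  obtain ⟨e⟩ := h
  exact ⟨e, m23_index_of e H hH⟩

end Cfsg.Agent.H660.M23Point
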