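import Mathlib
import Cfsg.Agent.ClassicalGeometry.PSL2Basic

/-!
# `PSL_n(q)` with `(q ^ n - 1) / (q - 1) = p` prime

`n` is prime, `gcd (n, q - 1) = 1`, `SL_n(q) = PSL_n(q)`, and the order of the group divided by `p`
is `n` modulo `p`.
-/

set_option autoImplicit false

open Finset

namespace Cfsg.Agent.H660.PSLPrime

variable {q n p : ℕ}

theorem sum_eq (hq : 2 ≤ q) (h : q ^ n - 1 = p * (q - 1)) : ∑ i ∈ range n, q ^ i = p := by
  rw [Nat.geomSum_eq hq, h, Nat.mul_div_cancel _ (by omega)]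

theorem lt_p (hq : 2 ≤ q) (hn : 2 ≤ n) (h : q ^ n - 1 = p * (q - 1)) : n < p := by
  rw [← sum_eq hq h]
  have h1 : ∀ m : ℕ, m ≤ ∑ i ∈ range m, q ^ i := by
    intro m
    calc m = ∑ i ∈ range m, 1 := by simp
      _ ≤ _ := Finset.sum_le_sum fun i _ => Nat.one_le_pow _ _ (by omega)
  obtain ⟨m, rfl⟩ : ∃ m, n = m + 2 := ⟨n - 2, by omega⟩
  rw [sum_range_succ]
  have h2 := h1 (m + 1)
  have h3 : 2 ≤ q ^ (m + 1) := by
    calc 2 ≤ q := hq
      _ = q ^ 1 := (pow_one q).symm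
      _ ≤ q ^ (m + 1) := Nat.pow_le_pow_right (by omega) (by omega)
  omega

theorem pow_mod (h : q ^ n - 1 = p * (q - 1)) (hq : 2 ≤ q) : ((q : ZMod p)) ^ n = 1 := by
  have h1 : q ^ n = p * (q - 1) + 1 := by
    have : 1 ≤ q ^ n := Nat.one_le_pow _ _ (by omega)
    omega
  have h2 := congrArg (Nat.cast : ℕ → ZMod p) h1
  push_cast at h2
  rw [h2]
  simp

/-- `q` has order `n` modulo `p`. -/
theorem isPrimitiveRoot (hp : p.Prime) (hq : 2 ≤ q) (hn : 2 ≤ n) (h : q ^ n - 1 = p * (q - 1)) :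
    IsPrimitiveRoot (q : ZMod p) n := by
  have : Fact p.Prime := ⟨hp⟩
  refine (IsPrimitiveRoot.iff (by omega)).2 ⟨pow_mod h hq, fun l hl0 hln hl => ?_⟩
  have h1 : ((q ^ l - 1 : ℕ) : ZMod p) = 0 := by
    rw [Nat.cast_sub (Nat.one_le_pow _ _ (by omega))]
    push_cast
    rw [hl, sub_self]
  rw [ZMod.natCast_eq_zero_iff] at h1
  have h2 : 0 < q ^ l - 1 := by
    have : 2 ≤ q ^ l := by
      calc 2 ≤ q := hq
        _ = q ^ 1 := (pow_one q).symm
        _ ≤ q ^ l := Nat.pow_le_pow_right (by omega) hl0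
    omega
  have h3 := Nat.le_of_dvd h2 h1
  have h4 : q ^ l ≤ q ^ (n - 1) := Nat.pow_le_pow_right (by omega) (by omega)
  have h5 := sum_eq hq h
  obtain ⟨m, rfl⟩ : ∃ m, n = m + 1 := ⟨n - 1, by omega⟩
  rw [sum_range_succ] at h5
  rw [Nat.add_sub_cancel] at h4
  omega

theorem prime_n (hp : p.Prime) (hq : 2 ≤ q) (hn : 2 ≤ n) (h : q ^ n - 1 = p * (q - 1)) :
    n.Prime := by
  by_contra hnp
  obtain ⟨a, b, ha, hb, hab⟩ : ∃ a b, 2 ≤ a ∧ a < n ∧ a * b = n := by
    refine ⟨n.minFac, n / n.minFac, (Nat.minFac_prime (by omega)).two_le, ?_,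
      Nat.mul_div_cancel' (Nat.minFac_dvd n)⟩
    exact (Nat.not_prime_iff_minFac_lt hn).1 hnp
  have h1 : q ^ a - 1 ∣ q ^ n - 1 := by
    rw [← hab, pow_mul]
    simpa using Nat.sub_dvd_pow_sub_pow (q ^ a) 1 b
  have h2 : q ^ a - 1 = (∑ i ∈ range a, q ^ i) * (q - 1) := by
    have h3 := Nat.geomSum_eq hq a
    have h4 : q - 1 ∣ q ^ a - 1 := by simpa using Nat.sub_dvd_pow_sub_pow q 1 a
    rw [h3, Nat.div_mul_cancel h4]
  rw [h2, h] at h1
  have h5 : (∑ i ∈ range a, q ^ i) ∣ p := Nat.dvd_of_mul_dvd_mul_right (by omega) h1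
  rcases (Nat.dvd_prime hp).1 h5 with h6 | h6
  · obtain ⟨m, rfl⟩ : ∃ m, a = m + 2 := ⟨a - 2, by omega⟩
    rw [sum_range_succ'] at h6
    have h7 : q ^ (0 + 1) ≤ ∑ k ∈ range (m + 1), q ^ (k + 1) :=
      Finset.single_le_sum (f := fun k => q ^ (k + 1)) (fun i _ => Nat.zero_le _)
        (Finset.mem_range.2 (by omega))
    simp only [zero_add, pow_one, pow_zero] at h6 h7
    omega
  · have h7 := sum_eq hq h
    have h8 : ∑ i ∈ range a, q ^ i < ∑ i ∈ range n, q ^ i := by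
      apply Finset.sum_lt_sum_of_subset (i := a) (Finset.range_mono hb.le)
        (Finset.mem_range.2 hb) (by simp) (Nat.pow_pos (by omega))
      intro j _ _
      exact Nat.zero_le _
    omega

theorem pow_eq_one (hp : p.Prime) {F : Type*} [Field F] [Fintype F] (hn : 2 ≤ n)
    (h : Fintype.card F ^ n - 1 = p * (Fintype.card F - 1)) (c : Fˣ) (hc : c ^ n = 1) : c = 1 := by
  classical
  set q := Fintype.card F with hqd
  have hq : 2 ≤ q := Fintype.one_lt_card
  by_contra hne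
  have h1 : orderOf c ∣ n := orderOf_dvd_of_pow_eq_one hc
  have h2 : orderOf c ∣ q - 1 := by
    rw [hqd, ← Fintype.card_units]
    exact orderOf_dvd_card
  have h3 : orderOf c ≠ 1 := fun h => hne (orderOf_eq_one_iff.1 h)
  have h4 : orderOf c ∣ p := by
    rw [← sum_eq hq h]
    have h5 : ∑ i ∈ range n, q ^ i ≡ ∑ i ∈ range n, 1 [MOD orderOf c] := by
      apply Nat.ModEq.sum
      intro i _
      have h6 : q ≡ 1 [MOD orderOf c] := ((Nat.modEq_iff_dvd' (by omega)).2 h2).symm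
      simpa using h6.pow i
    rw [sum_const, card_range, smul_eq_mul, mul_one] at h5
    exact (Nat.modEq_zero_iff_dvd.1 (h5.trans (Nat.modEq_zero_iff_dvd.2 h1)))
  have h5 : orderOf c = p := ((Nat.dvd_prime hp).1 h4).resolve_left h3
  have h6 := Nat.le_of_dvd (by omega) h1
  have h7 := lt_p hq hn h
  omega

section Groups

variable {F : Type*} [Field F]

theorem center_eq_bot [Finite F] (hn : n ≠ 0) (hgcd : ∀ c : Fˣ, c ^ n = 1 → c = 1) :
    Subgroup.center (Matrix.SpecialLinearGroup (Fin n) F) = ⊥ := by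
  rw [eq_bot_iff]
  intro A hA
  rw [Matrix.SpecialLinearGroup.mem_center_iff] at hA
  obtain ⟨c, hc, hcA⟩ := hA
  rw [Fintype.card_fin] at hc
  have hc0 : c ≠ 0 := by
    rintro rfl
    rw [zero_pow hn] at hc
    exact zero_ne_one hc
  have h1 := hgcd (Units.mk0 c hc0) (by
    apply Units.ext
    simpa using hc)
  have h2 : c = 1 := by simpa using congrArg Units.val h1
  rw [Subgroup.mem_bot]
  apply Subtype.ext
  rw [← hcA, h2, map_one]
  rfl

/-- `SL_n(F)` is isomorphic to `PSL_n(F)` when the center is trivial. -/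
theorem nonempty_equiv [Finite F] (hn : n ≠ 0) (hgcd : ∀ c : Fˣ, c ^ n = 1 → c = 1) :
    Nonempty (Matrix.SpecialLinearGroup (Fin n) F ≃*
      Matrix.ProjectiveSpecialLinearGroup (Fin n) F) := by
  refine ⟨MulEquiv.ofBijective (QuotientGroup.mk' (Subgroup.center
    (Matrix.SpecialLinearGroup (Fin n) F))) ⟨?_, QuotientGroup.mk'_surjective _⟩⟩
  rw [← MonoidHom.ker_eq_bot_iff, QuotientGroup.ker_mk']
  exact center_eq_bot hn hgcd

theorem card_SL_div_mod [Fintype F] (hp : p.Prime) (hn : 2 ≤ n)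
    (h : Fintype.card F ^ n - 1 = p * (Fintype.card F - 1)) :
    Nat.card (Matrix.SpecialLinearGroup (Fin n) F) / p % p = n := by
  classical
  have : Fact p.Prime := ⟨hp⟩
  set q := Fintype.card F with hqd
  have hq : 2 ≤ q := Fintype.one_lt_card
  obtain ⟨m, rfl⟩ : ∃ m, n = m + 1 := ⟨n - 1, by omega⟩
  have h1 := Cfsg.Agent.ClassicalGeometry.PSL2Basic.card_SL_mul (n := Fin (m + 1)) (F := F)
  rw [Matrix.card_GL_field, Fin.prod_univ_succ, ← hqd, Fin.val_zero, pow_zero, h] at h1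
  have h2 : Nat.card (Matrix.SpecialLinearGroup (Fin (m + 1)) F) =
      p * ∏ i : Fin m, (q ^ (m + 1) - q ^ (i.succ : ℕ)) := by
    apply Nat.eq_of_mul_eq_mul_right (show 0 < q - 1 by omega)
    rw [h1]
    ring
  rw [h2, Nat.mul_div_cancel_left _ hp.pos]
  have h3 : ((∏ i : Fin m, (q ^ (m + 1) - q ^ (i.succ : ℕ)) : ℕ) : ZMod p) = ((m + 1 : ℕ) : ZMod p) := by
    rw [Nat.cast_prod]
    have h4 : ∀ i : Fin m, ((q ^ (m + 1) - q ^ (i.succ : ℕ) : ℕ) : ZMod p) =
        1 - (q : ZMod p) ^ ((i : ℕ) + 1) := by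
      intro i
      rw [Nat.cast_sub (Nat.pow_le_pow_right (by omega) (by have := i.2; simp))]
      push_cast
      rw [pow_mod h hq, Fin.val_succ]
    rw [Finset.prod_congr rfl fun i _ => h4 i, Finset.prod_range (fun i => 1 - (q : ZMod p) ^ (i + 1)) |>.symm]
    rw [(isPrimitiveRoot hp hq hn h).prod_one_sub_pow_eq_order]
    push_cast
    rfl
  rw [ZMod.natCast_eq_natCast_iff] at h3
  have h5 := lt_p hq hn h
  rw [h3, Nat.mod_eq_of_lt h5]

end Groups

end Cfsg.Agent.H660.PSLPrime
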