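import Mathlib
import Cfsg.Prelude.Def_Characters
import Cfsg.Agent.Characters.Core
import Cfsg.Agent.CharactersDeep.PrimeIndex
import Cfsg.Agent.CharactersDeep.ExtUnique
import Cfsg.Agent.Solvable.SchurZassenhausConj
import Cfsg.Agent.SporadicA.DegreePrime
import Cfsg.Agent.Lib.NormalHall
import Cfsg.Agent.S0876
import Cfsg.Agent.Blocks.Basic
import Cfsg.Agent.Blocks.ExistsModular
import Cfsg.Agent.Blocks.Local
import Cfsg.Agent.Blocks.PPart

/-!
# Transitive groups of prime degree `p` with a unique irreducible character of degree `p`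

Such a group, with `C(P) = P` and abelian `N(P)/P`, is simple.
-/

set_option autoImplicit false
open Cfsg Subgroup MulAction
open scoped ComplexConjugate

namespace Cfsg.Agent.H660.PrimeDegSimple

universe u

/-- Degree bound. -/
theorem sq_le_card {G : Type*} [Group G] [Finite G] {p : ℕ} {χ : G → ℂ}
    (hχ : IsIrrCharacter G χ) (h : χ 1 = p) : p ^ 2 ≤ Nat.card G := by
  classical
  have := Fintype.ofFinite G
  have h1 := Cfsg.Agent.Characters.Core.classInner_irr_self hχ
  rw [Cfsg.Agent.Characters.Core.classInner_def] at h1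
  have hG : (Nat.card G : ℂ) ≠ 0 := by exact_mod_cast (Nat.card_pos (α := G)).ne'
  have h2 : ∑ g : G, χ g * conj (χ g) = Nat.card G := by
    field_simp at h1
    exact h1
  have h3 : ∑ g : G, Complex.normSq (χ g) = (Nat.card G : ℝ) := by
    have : ((∑ g : G, Complex.normSq (χ g) : ℝ) : ℂ) = ((Nat.card G : ℝ) : ℂ) := by
      push_cast
      rw [← h2]
      exact Finset.sum_congr rfl fun g _ => (Complex.mul_conj _).symm
    exact_mod_cast this
  have h4 : Complex.normSq (χ 1) ≤ ∑ g : G, Complex.normSq (χ g) :=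
    Finset.single_le_sum (fun g _ => Complex.normSq_nonneg _) (Finset.mem_univ 1)
  rw [h3, h, Complex.normSq_natCast] at h4
  have h5 : ((p * p : ℕ) : ℝ) ≤ (Nat.card G : ℝ) := by push_cast; exact h4
  rw [sq]
  exact_mod_cast h5

/-- If the irreducible character of degree `p` is unique, a normal subgroup of prime index
has index `p`. -/
theorem eq_of_index_prime {G : Type*} [Group G] [Finite G] {p : ℕ} (hp : p.Prime)
    (huniq : ∃! χ : IrrCharacter G, charDegree (χ : G → ℂ) = p) (K : Subgroup G) [K.Normal]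
    {l : ℕ} (hl : l.Prime) (hK : K.index = l) : l = p := by
  classical
  obtain ⟨ψ, hψ, hu⟩ := huniq
  obtain ⟨f, hf, -⟩ := Cfsg.Agent.CharactersDeep.PrimeIndex.exists_hom_ker K hl hK
  have hψ1 : (ψ : G → ℂ) 1 = p := by
    obtain ⟨n, hn0, hn⟩ := Cfsg.Agent.Characters.Core.isIrr_apply_one ψ.2
    rw [Cfsg.Agent.Blocks.Basic.charDegree_of_eq hn] at hψ
    rw [hn, hψ]
  have hirr : IsIrrCharacter G (fun g => (ψ : G → ℂ) g * f g) :=
    Cfsg.Agent.CharactersDeep.ExtUnique.isIrr_mul_hom ψ.2 f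
  have heq : (⟨_, hirr⟩ : IrrCharacter G) = ψ := by
    apply hu
    apply Cfsg.Agent.Blocks.Basic.charDegree_of_eq
    show (ψ : G → ℂ) 1 * f 1 = p
    rw [map_one, hψ1]
    simp
  have hval : ∀ g, (ψ : G → ℂ) g * f g = (ψ : G → ℂ) g := fun g =>
    congrFun (congrArg Subtype.val heq) g
  -- an `l`-element outside `K`
  have hlf : Fact l.Prime := ⟨hl⟩
  obtain ⟨R⟩ : Nonempty (Sylow l G) := inferInstance
  have hRK : ¬ (R : Subgroup G) ≤ K := by
    intro hle
    have h1 : R.toSubgroup.index.Coprime l := by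
      rw [Nat.coprime_comm, Nat.Prime.coprime_iff_not_dvd hl]
      exact R.not_dvd_index
    have h2 : K.index ∣ (R : Subgroup G).index := Subgroup.index_dvd_of_le hle
    rw [hK] at h2
    rw [Nat.coprime_comm, Nat.Prime.coprime_iff_not_dvd hl] at h1
    exact h1 h2
  obtain ⟨x, hxR, hxK⟩ := SetLike.not_le_iff_exists.1 hRK
  have hx0 : (ψ : G → ℂ) x = 0 := by
    have h1 := hval x
    by_contra h0
    have h2 : (f x : ℂ) = 1 := by
      have := mul_left_cancel₀ h0 (h1.trans (mul_one _).symm)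
      exact this
    apply hxK
    rw [← hf]
    exact Units.ext h2
  have hxo : ∃ k : ℕ, orderOf x = l ^ k := by
    obtain ⟨k, hk⟩ := (IsPGroup.iff_orderOf.1 R.isPGroup') ⟨x, hxR⟩
    exact ⟨k, by rw [← hk]; exact (Subgroup.orderOf_mk x hxR).symm⟩
  obtain ⟨M, hM⟩ := Cfsg.Agent.Blocks.ExistsModular.exists_isPModular hl
  have hP : M.IsPrime := hM.2.1.isPrime
  have h1 : MemLocalIdeal M ((ψ : G → ℂ) x - (ψ : G → ℂ) 1) := by
    refine (Cfsg.Agent.S0876.result l M hM x 1 x 1
      (Cfsg.Agent.Blocks.PPart.isPPart_of_isPGroup hxo)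
      (Cfsg.Agent.Blocks.PPart.isPPart_of_isPGroup ⟨0, by simp⟩)).1 ?_ ψ
    simp
  rw [hx0, hψ1, zero_sub, Cfsg.Agent.Blocks.Local.memLocalIdeal_neg_iff] at h1
  have h2 : (p : AlgInt) ∈ M := by
    rw [← Cfsg.Agent.Blocks.Local.memLocalIdeal_algInt_iff]
    simpa using h1
  by_contra hne
  have hcop : Nat.Coprime l p := (Nat.coprime_primes hl hp).2 hne
  have h3 : IsCoprime (l : ℤ) (p : ℤ) := Nat.isCoprime_iff_coprime.2 hcop
  obtain ⟨a, b, hab⟩ := h3
  apply Cfsg.Agent.Blocks.Local.one_notMem (M := M)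
  have h4 : (1 : AlgInt) = (a : AlgInt) * (l : AlgInt) + (b : AlgInt) * (p : AlgInt) := by
    have := congrArg (Int.cast : ℤ → AlgInt) hab
    push_cast at this
    exact this.symm
  rw [h4]
  exact M.add_mem (M.mul_mem_left _ hM.2.2) (M.mul_mem_left _ h2)


section Perm

variable {Ω : Type*} {G : Type*} [Group G] [Finite G] [MulAction G Ω] [FaithfulSMul G Ω]
  [IsPretransitive G Ω] {p : ℕ} [hpf : Fact p.Prime]

/-- A nontrivial normal subgroup of a group of prime degree is transitive, hence `p` divides its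
order. -/
theorem dvd_card_of_normal (hΩ : Nat.card Ω = p) (N : Subgroup G) [N.Normal] (hN : N ≠ ⊥) :
    p ∣ Nat.card N := by
  have hp : p.Prime := hpf.out
  have hfΩ : Finite Ω := Nat.finite_of_card_ne_zero (by rw [hΩ]; exact hp.ne_zero)
  have hprim : IsPreprimitive G Ω := IsPreprimitive.of_prime_card (by rw [hΩ]; exact hp)
  have hfix : fixedPoints N Ω ≠ Set.univ := by
    intro h
    apply hN
    rw [eq_bot_iff]
    intro n hn
    rw [mem_bot]
    apply FaithfulSMul.eq_of_smul_eq_smul (α := Ω)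
    intro a
    have : a ∈ fixedPoints N Ω := by rw [h]; trivial
    rw [one_smul]
    exact this ⟨n, hn⟩
  have htr : IsPretransitive N Ω :=
    IsQuasiPreprimitive.isPretransitive_of_normal hfix
  have hne : Nonempty Ω := by
    rw [← Finite.card_pos_iff, hΩ]; exact hp.pos
  obtain ⟨a⟩ := hne
  have h1 := index_stabilizer_of_transitive N a
  rw [hΩ] at h1
  rw [← h1]
  exact Subgroup.index_dvd_card _

omit [IsPretransitive G Ω] in
/-- The normalizer of a subgroup of order `p` in a group of prime degree `p` is solvable. -/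
theorem isSolvable_normalizer (hΩ : Nat.card Ω = p) (P : Subgroup G) (hP : Nat.card P = p) :
    Group.IsSolvable (normalizer (P : Set G)) := by
  have hp : p.Prime := hpf.out
  have hne : Nonempty Ω := by
    apply (Nat.card_ne_zero.1 _).1
    rw [hΩ]; exact hp.ne_zero
  have hcyc : IsCyclic P := isCyclic_of_prime_card hP
  have htr := Cfsg.Agent.SporadicA.DegreePrime.isPretransitive_of_card_prime p hΩ P hP
  have hcomm : ∀ a ∈ P, ∀ b ∈ P, a * b = b * a := by
    intro a ha b hb
    have h := (IsCyclic.isMulCommutative (α := P)).1.comm (⟨a, ha⟩ : P) ⟨b, hb⟩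
    exact congrArg Subtype.val h
  have hC := Cfsg.Agent.SporadicA.DegreePrime.centralizer_le_of_isPretransitive P htr hcomm
  have hcP : Group.IsSolvable P := by
    infer_instance
  have hcA : Group.IsSolvable (MulAut P) :=
    Group.isSolvable_of_isSolvable_injective (f := (IsCyclic.mulAutMulEquiv (G := P)).toMonoidHom)
      (IsCyclic.mulAutMulEquiv (G := P)).injective
  refine Group.isSolvable_of_ker_le_range (inclusion P.le_normalizer)
    P.normalizerMonoidHom ?_
  rw [normalizerMonoidHom_ker]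
  intro x hx
  rw [mem_subgroupOf] at hx
  exact ⟨⟨x, hC hx⟩, rfl⟩

/-- **Simplicity.** -/
theorem isSimpleGroup (hΩ : Nat.card Ω = p) (hp2 : ¬ p ^ 2 ∣ Nat.card G)
    (huniq : ∃! χ : IrrCharacter G, charDegree (χ : G → ℂ) = p) : IsSimpleGroup G := by
  classical
  have hp : p.Prime := hpf.out
  have hfΩ : Finite Ω := Nat.finite_of_card_ne_zero (by rw [hΩ]; exact hp.ne_zero)
  obtain ⟨ψ, hψ, hu⟩ := id huniq
  have hψ1 : (ψ : G → ℂ) 1 = p := by
    obtain ⟨n, hn0, hn⟩ := Cfsg.Agent.Characters.Core.isIrr_apply_one ψ.2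
    rw [Cfsg.Agent.Blocks.Basic.charDegree_of_eq hn] at hψ
    rw [hn, hψ]
  have hG2 : p ^ 2 ≤ Nat.card G := sq_le_card ψ.2 hψ1
  have hGp : p < Nat.card G := lt_of_lt_of_le (by nlinarith [hp.one_lt]) hG2
  have hnt : Nontrivial G := by
    rw [← Finite.one_lt_card_iff_nontrivial]; exact hp.one_lt.trans hGp
  have hne : Nonempty Ω := by
    rw [← Finite.card_pos_iff, hΩ]; exact hp.pos
  have hdvd : p ∣ Nat.card G := by
    obtain ⟨a⟩ := hne
    have h1 := index_stabilizer_of_transitive G a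
    rw [← hΩ, ← h1]
    exact Subgroup.index_dvd_card _
  -- nontrivial normal subgroups have index prime to `p`
  have hidx : ∀ N : Subgroup G, N.Normal → N ≠ ⊥ → ¬ p ∣ N.index := by
    intro N hN hNb hd
    have h1 := dvd_card_of_normal hΩ N hNb
    apply hp2
    rw [← Subgroup.card_mul_index N, sq]
    exact mul_dvd_mul h1 hd
  -- no normal subgroup of prime index
  have hno : ∀ N : Subgroup G, N.Normal → ¬ N.index.Prime := by
    intro N hN hl
    have h1 := eq_of_index_prime hp huniq N hl rfl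
    by_cases hNb : N = ⊥
    · rw [hNb, Subgroup.index_bot] at h1
      omega
    · exact hidx N hN hNb (h1 ▸ dvd_rfl)
  refine ⟨fun N hN => ?_⟩
  by_cases hNb : N = ⊥
  · exact Or.inl hNb
  right
  obtain ⟨P⟩ : Nonempty (Sylow p G) := inferInstance
  have hPc := Cfsg.Agent.SporadicA.DegreePrime.card_sylow_of_factorization p P hdvd hp2
  have hPN : (P : Subgroup G) ≤ N := by
    apply Cfsg.Agent.Lib.NormalHall.le_of_card_coprime_index
    rw [hPc, Nat.Prime.coprime_iff_not_dvd hp]
    exact hidx N hN hNb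
  -- Frattini
  have hfr : normalizer ((P : Subgroup G) : Set G) ⊔ N = ⊤ :=
    Sylow.normalizer_sup_eq_top' P hPN
  by_contra hNt
  have hsolvN : Group.IsSolvable (normalizer ((P : Subgroup G) : Set G)) :=
    isSolvable_normalizer (Ω := Ω) hΩ (P : Subgroup G) hPc
  have hsurj : Function.Surjective
      ((QuotientGroup.mk' N).comp (normalizer ((P : Subgroup G) : Set G)).subtype) := by
    intro y
    obtain ⟨g, rfl⟩ := QuotientGroup.mk_surjective y
    have hg : g ∈ normalizer ((P : Subgroup G) : Set G) ⊔ N := by rw [hfr]; exact mem_top g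
    rw [← SetLike.mem_coe, mul_normal] at hg
    obtain ⟨a, ha, n, hn, rfl⟩ := Set.mem_mul.1 hg
    rw [SetLike.mem_coe] at hn ha
    refine ⟨⟨a, ha⟩, ?_⟩
    show ((a : G) : G ⧸ N) = ((a * n : G) : G ⧸ N)
    rw [QuotientGroup.mk_mul_of_mem _ hn]
  have hsolv : Group.IsSolvable (G ⧸ N) := Group.isSolvable_of_surjective hsurj
  obtain ⟨M, hM, -, hMp⟩ :=
    Cfsg.Agent.Solvable.SchurZassenhausConj.exists_normal_prime_index N hNt hsolv
  exact hno M hM hMp

end Perm

end Cfsg.Agent.H660.PrimeDegSimple
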