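import Mathlib
import Cfsg.Agent.SporadicA.DegreePrime

/-!
# Subgroups of prime order with small normalizer; complements of Sylow `p`-subgroups in groups of
prime degree
-/

set_option autoImplicit false
open Subgroup MulAction

namespace Cfsg.Agent.H660.PrimeDegTI

section Small

variable {G : Type*} [Group G] [Finite G] {r : ℕ}

theorem factorization_eq_one (hr : r.Prime) (h3 : 3 ≤ r) (E : Subgroup G) (hE : Nat.card E = r)
    (hN : Nat.card (normalizer (E : Set G)) = 2 * r) : (Nat.card G).factorization r = 1 := by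
  have hrf : Fact r.Prime := ⟨hr⟩
  have hG : Nat.card G ≠ 0 := Nat.card_pos.ne'
  have h1 : r ∣ Nat.card G := hE ▸ E.card_subgroup_dvd_card
  have h2 : ¬ r ^ 2 ∣ Nat.card G := by
    intro h
    have h4 := Sylow.prime_pow_dvd_card_normalizer (n := 1) h (H := E) (by rw [hE, pow_one])
    rw [hN, pow_succ, pow_one] at h4
    have h5 := Nat.dvd_of_mul_dvd_mul_right hr.pos h4
    have h6 := Nat.le_of_dvd (by norm_num) h5
    omega
  have h3' : 1 ≤ (Nat.card G).factorization r := (hr.dvd_iff_one_le_factorization hG).1 h1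
  have h4 : ¬ 2 ≤ (Nat.card G).factorization r := fun h =>
    h2 ((hr.pow_dvd_iff_le_factorization hG).2 h)
  omega

/-- In a finite group with a subgroup of prime order `r ≥ 3` with normalizer of order `2 r`, the
square of every element commuting with an element `w` of order `r` is a power of `w`. -/
theorem sq_mem_zpowers (hr : r.Prime) (h3 : 3 ≤ r) (E : Subgroup G) (hE : Nat.card E = r)
    (hN : Nat.card (normalizer (E : Set G)) = 2 * r) (u w : G) (hw : orderOf w = r)
    (huw : u * w = w * u) : u ^ 2 ∈ zpowers w := by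
  have hrf : Fact r.Prime := ⟨hr⟩
  have hf := factorization_eq_one hr h3 E hE hN
  have hEc : Nat.card E = r ^ (Nat.card G).factorization r := by rw [hf, pow_one, hE]
  have hwc : Nat.card (zpowers w) = r ^ (Nat.card G).factorization r := by
    rw [hf, pow_one, Nat.card_zpowers, hw]
  obtain ⟨g, hg⟩ := exists_smul_eq G (Sylow.ofCard E hEc) (Sylow.ofCard (zpowers w) hwc)
  have hg' : ∀ x : G, x ∈ zpowers w ↔ g⁻¹ * x * g ∈ E := by
    intro x
    have h1 : (zpowers w) = ((g • Sylow.ofCard E hEc : Sylow r G) : Subgroup G) := by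
      rw [hg]; rfl
    rw [h1]
    rw [Sylow.coe_subgroup_smul, Subgroup.mem_pointwise_smul_iff_inv_smul_mem]
    rw [MulAut.smul_def, ← map_inv, MulAut.conj_apply, inv_inv]
    rfl
  rw [hg']
  have hwE : g⁻¹ * w * g ∈ E := (hg' w).1 (mem_zpowers w)
  have huN : g⁻¹ * u * g ∈ normalizer (E : Set G) := by
    have hx : ∀ x ∈ E, (g⁻¹ * u * g) * x * (g⁻¹ * u * g)⁻¹ = x := by
      intro x hx
      have h1 : g * x * g⁻¹ ∈ zpowers w := by
        rw [hg']
        simpa [mul_assoc] using hx
      obtain ⟨k, hk⟩ := mem_zpowers_iff.1 h1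
      have h2 : u * (w ^ k) = w ^ k * u := ((show Commute u w from huw).zpow_right k).eq
      rw [hk] at h2
      calc (g⁻¹ * u * g) * x * (g⁻¹ * u * g)⁻¹ = g⁻¹ * (u * (g * x * g⁻¹)) * u⁻¹ * g := by group
        _ = x := by rw [h2]; group
    rw [mem_normalizer_iff]
    intro x
    constructor
    · intro h
      rw [hx x h]
      exact h
    · intro h
      have h1 := hx _ h
      have h2 : (g⁻¹ * u * g) * x * (g⁻¹ * u * g)⁻¹ = x := by
        have h3 : (g⁻¹ * u * g) * ((g⁻¹ * u * g) * x * (g⁻¹ * u * g)⁻¹) =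
            (g⁻¹ * u * g) * x := by
          calc _ = ((g⁻¹ * u * g) * ((g⁻¹ * u * g) * x * (g⁻¹ * u * g)⁻¹) *
                (g⁻¹ * u * g)⁻¹) * (g⁻¹ * u * g) := by group
            _ = _ := by rw [h1]; group
        exact mul_left_cancel h3
      rwa [h2] at h
  have hidx : (E.subgroupOf (normalizer (E : Set G))).index = 2 := by
    have h1 := (E.subgroupOf (normalizer (E : Set G))).card_mul_index
    rw [hN, Nat.card_congr (Subgroup.subgroupOfEquivOfLe E.le_normalizer).toEquiv, hE,
      mul_comm 2 r] at h1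
    exact Nat.eq_of_mul_eq_mul_left hr.pos h1
  have h1 := Subgroup.sq_mem_of_index_two hidx (⟨g⁻¹ * u * g, huN⟩ : normalizer (E : Set G))
  rw [mem_subgroupOf] at h1
  have h2 : g⁻¹ * u ^ 2 * g = (g⁻¹ * u * g) ^ 2 := by
    rw [sq, sq]; group
  rw [h2]
  exact h1

end Small

section Perm

variable {α : Type*} [Fintype α] [DecidableEq α] {p : ℕ} [hpf : Fact p.Prime]

/-- In a group of prime degree `p`, an element of a subgroup `E` which normalizes a Sylow
`p`-subgroup `P` and meets it trivially fixes at most one point, unless it is trivial. -/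
theorem eq_one_of_fix {G Ω : Type*} [Group G] [MulAction G Ω] [FaithfulSMul G Ω]
    (hΩ : Nat.card Ω = p) (P E : Subgroup G) (hP : Nat.card P = p)
    (hPE' : P ⊓ E = ⊥) (x : G) (hxE : x ∈ E) (hxN : x ∈ normalizer (P : Set G)) (a b : Ω)
    (hab : a ≠ b) (ha : x • a = a) (hb : x • b = b) : x = 1 := by
  have hp : p.Prime := hpf.out
  have hfΩ : Finite Ω := Nat.finite_of_card_ne_zero (by rw [hΩ]; exact hp.ne_zero)
  have hfP : Finite P := Nat.finite_of_card_ne_zero (by rw [hP]; exact hp.ne_zero)
  have hne : Nonempty Ω := ⟨a⟩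
  have htr := Cfsg.Agent.SporadicA.DegreePrime.isPretransitive_of_card_prime p hΩ P hP
  have hcyc : IsCyclic P := isCyclic_of_prime_card hP
  have hcomm : ∀ u ∈ P, ∀ v ∈ P, u * v = v * u := by
    intro u hu v hv
    have h := (IsCyclic.isMulCommutative (α := P)).1.comm (⟨u, hu⟩ : P) ⟨v, hv⟩
    exact congrArg Subtype.val h
  have hC := Cfsg.Agent.SporadicA.DegreePrime.centralizer_le_of_isPretransitive P htr hcomm
  -- regularity
  have hreg : ∀ (c : Ω) (u : G), u ∈ P → u • c = c → u = 1 := by
    intro c u hu huc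
    have h1 := index_stabilizer_of_transitive P c
    have h2 := (stabilizer P c).card_mul_index
    rw [h1, hΩ, hP] at h2
    have h3 : Nat.card (stabilizer P c) = 1 := by
      apply Nat.eq_of_mul_eq_mul_right hp.pos
      rw [h2, one_mul]
    have h4 : stabilizer P c = ⊥ := Subgroup.eq_bot_of_card_eq _ h3
    have h5 : (⟨u, hu⟩ : P) ∈ stabilizer P c := huc
    rw [h4, mem_bot] at h5
    exact congrArg Subtype.val h5
  obtain ⟨u, hu⟩ := exists_smul_eq P a b
  have hu' : (u : G) • a = b := hu
  have hu1 : (u : G) ≠ 1 := by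
    intro h
    rw [h, one_smul] at hu'
    exact hab hu'
  have hxu : x * u * x⁻¹ ∈ P := (mem_normalizer_iff.1 hxN u).1 u.2
  have hxa : x⁻¹ • a = a := by rw [inv_smul_eq_iff, ha]
  have h1 : (u : G)⁻¹ * (x * u * x⁻¹) = 1 := by
    apply hreg a _ (P.mul_mem (P.inv_mem u.2) hxu)
    rw [mul_smul, mul_smul, mul_smul, hxa, hu', hb, ← hu', inv_smul_smul]
  have h2 : x * u = u * x := by
    have h3 : (u : G) = x * u * x⁻¹ := inv_mul_eq_one.1 h1
    conv_rhs => rw [h3]
    group
  have hxC : x ∈ centralizer (P : Set G) := by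
    rw [mem_centralizer_iff]
    intro v hv
    have hzp : zpowers (⟨u, u.2⟩ : P) = ⊤ := by
      apply zpowers_eq_top_of_prime_card hP
      intro h
      exact hu1 (congrArg Subtype.val h)
    have h4 : (⟨v, hv⟩ : P) ∈ zpowers (⟨u, u.2⟩ : P) := by rw [hzp]; exact mem_top _
    obtain ⟨k, hk⟩ := mem_zpowers_iff.1 h4
    have h5 : (u : G) ^ k = v := congrArg Subtype.val hk
    rw [← h5]
    exact ((show Commute x u from h2).zpow_right k).eq.symm
  have h3 : x ∈ P ⊓ E := ⟨hC hxC, hxE⟩
  rw [hPE', mem_bot] at h3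
  exact h3

/-- A permutation whose nontrivial powers fix at most one point has all its cycles of the same
length, its order. -/
theorem eq_of_mem_cycleType (σ : Equiv.Perm α)
    (h : ∀ (k : ℕ) (a b : α), a ≠ b → (σ ^ k) a = a → (σ ^ k) b = b → σ ^ k = 1) (n : ℕ)
    (hn : n ∈ σ.cycleType) : n = orderOf σ := by
  have h2 := Equiv.Perm.two_le_of_mem_cycleType hn
  have hd := Equiv.Perm.dvd_of_mem_cycleType hn
  rw [Equiv.Perm.cycleType_def, Multiset.mem_map] at hn
  obtain ⟨c, hc, hcn⟩ := hn
  have hc' : c ∈ σ.cycleFactorsFinset := hc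
  have hcyc : c.IsCycle := (Equiv.Perm.mem_cycleFactorsFinset_iff.1 hc').1
  simp only [Function.comp_apply] at hcn
  have hfix : ∀ x ∈ c.support, (σ ^ n) x = x := by
    intro x hx
    have h1 := Equiv.Perm.cycle_is_cycleOf hx hc'
    rw [← Equiv.Perm.cycleOf_pow_apply_self, ← h1, ← hcn, ← hcyc.orderOf, pow_orderOf_eq_one]
    rfl
  have h1 : 1 < c.support.card := by omega
  obtain ⟨a, ha, b, hb, hab⟩ := Finset.one_lt_card.1 h1
  have h3 := h n a b hab (hfix a ha) (hfix b hb)
  exact Nat.dvd_antisymm hd (orderOf_dvd_of_pow_eq_one h3)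

/-- The alternating case. -/
theorem alt_case (hα : Fintype.card α = p) (hp5 : 5 ≤ p) (G : Subgroup (Equiv.Perm α))
    (hG : G.index = 2) (P E : Subgroup G) (hP : Nat.card P = p) (hPE' : P ⊓ E = ⊥)
    (hEN : E ≤ normalizer (P : Set G)) (he : 2 * Nat.card E + 1 = p)
    (hNE : Nat.card (normalizer (E : Set G)) = 2 * Nat.card E) : p = 5 := by
  classical
  have hp : p.Prime := hpf.out
  have hfP : Finite P := Nat.finite_of_card_ne_zero (by rw [hP]; exact hp.ne_zero)
  have hΩ : Nat.card α = p := by rw [Nat.card_eq_fintype_card, hα]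
  set e := Nat.card E with hedef
  -- `E` is cyclic
  have hcyc : IsCyclic P := isCyclic_of_prime_card hP
  have hcomm : ∀ u ∈ P, ∀ v ∈ P, u * v = v * u := by
    intro u hu v hv
    have h := (IsCyclic.isMulCommutative (α := P)).1.comm (⟨u, hu⟩ : P) ⟨v, hv⟩
    exact congrArg Subtype.val h
  have hne : Nonempty α := by
    rw [← Finite.card_pos_iff, hΩ]; exact hp.pos
  have htr := Cfsg.Agent.SporadicA.DegreePrime.isPretransitive_of_card_prime p hΩ P hP
  have hC := Cfsg.Agent.SporadicA.DegreePrime.centralizer_le_of_isPretransitive P htr hcomm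
  have hcycE : IsCyclic E := by
    have hcA : IsCyclic (MulAut P) := by
      have e1 := IsCyclic.mulAutMulEquiv (G := P)
      rw [hP] at e1
      have : IsCyclic (ZMod p)ˣ := inferInstance
      exact isCyclic_of_injective e1.toMonoidHom e1.injective
    let f : E →* MulAut P := P.normalizerMonoidHom.comp (inclusion hEN)
    apply isCyclic_of_injective f
    rw [← MonoidHom.ker_eq_bot_iff, eq_bot_iff]
    intro x hx
    have h1 : inclusion hEN x ∈ P.normalizerMonoidHom.ker := hx
    rw [normalizerMonoidHom_ker, mem_subgroupOf] at h1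
    have h2 : (x : G) ∈ P ⊓ E := ⟨hC h1, x.2⟩
    rw [hPE', mem_bot] at h2
    rw [mem_bot]
    exact Subtype.ext h2
  obtain ⟨g, hg⟩ := hcycE.exists_generator
  have hog : orderOf g = e := orderOf_eq_card_of_forall_mem_zpowers hg
  set γ : Equiv.Perm α := ((g : G) : Equiv.Perm α) with hγ
  have hoγ : orderOf γ = e := by
    rw [← hog, hγ, Subgroup.orderOf_coe, Subgroup.orderOf_coe]
  have hpow : ∀ k : ℕ, γ ^ k = (((g ^ k : E) : G) : Equiv.Perm α) := by
    intro k
    push_cast
    rfl
  have hcond : ∀ (k : ℕ) (a b : α), a ≠ b → (γ ^ k) a = a → (γ ^ k) b = b → γ ^ k = 1 := by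
    intro k a b hab ha hb
    rw [hpow] at ha hb ⊢
    have h1 := eq_one_of_fix (Ω := α) hΩ P E hP hPE' ((g ^ k : E) : G) (g ^ k).2
      (hEN (g ^ k).2) a b hab ha hb
    rw [h1]
    rfl
  have hct : ∀ n ∈ γ.cycleType, n = e := fun n hn => by
    rw [eq_of_mem_cycleType γ hcond n hn, hoγ]
  have hrep : γ.cycleType = Multiset.replicate (Multiset.card γ.cycleType) e :=
    Multiset.eq_replicate_card.2 hct
  set k := Multiset.card γ.cycleType with hk
  have he2 : 2 ≤ e := by omega
  have hγ1 : γ ≠ 1 := by
    intro h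
    rw [h, orderOf_one] at hoγ
    omega
  have hsum : γ.cycleType.sum = k * e := by
    rw [hrep, Multiset.sum_replicate, smul_eq_mul]
  have hle := γ.sum_cycleType_le
  rw [hα, hsum] at hle
  have hfp : Fintype.card (Function.fixedPoints γ) ≤ 1 := by
    rw [Fintype.card_le_one_iff]
    rintro ⟨a, ha⟩ ⟨b, hb⟩
    by_contra hab
    have hab' : a ≠ b := fun h => hab (Subtype.ext h)
    apply hγ1
    have := hcond 1 a b hab' (by rw [pow_one]; exact ha) (by rw [pow_one]; exact hb)
    rwa [pow_one] at this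
  rw [Equiv.Perm.card_fixedPoints, hα, hsum] at hfp
  have hk2 : k = 2 := by
    have h1 : k * e ≤ 2 * e + 1 := by omega
    have h2 : 2 * e ≤ k * e := by omega
    have h3 : 2 ≤ k := Nat.le_of_mul_le_mul_right h2 (by omega)
    have h4 : k < 3 := by
      by_contra h5
      have h6 : 3 * e ≤ k * e := Nat.mul_le_mul_right _ (by omega)
      omega
    omega
  have hcent := Equiv.Perm.nat_card_centralizer γ
  rw [hα, hsum, hrep, hk2] at hcent
  have h1 : (Multiset.replicate 2 e).toFinset = {e} := by
    rw [Multiset.toFinset_replicate]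
    simp
  rw [h1, Finset.prod_singleton, Multiset.count_replicate_self, Multiset.prod_replicate] at hcent
  have h2 : p - 2 * e = 1 := by omega
  rw [h2] at hcent
  have hcent' : Nat.card (centralizer {γ}) = 2 * e ^ 2 := by
    rw [hcent]
    simp [Nat.factorial]
    ring
  -- the intersection with `G`
  have h3 : G.relIndex (centralizer {γ}) ≤ 2 := by
    have hnorm : G.Normal := normal_of_index_eq_two hG
    have := relIndex_dvd_index_of_normal (H := G) (K := centralizer {γ})
    rw [hG] at this
    exact Nat.le_of_dvd (by norm_num) this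
  have h4 : e ^ 2 ≤ Nat.card (G.subgroupOf (centralizer {γ})) := by
    have h5 := (G.subgroupOf (centralizer {γ})).card_mul_index
    rw [hcent'] at h5
    have h6 : (G.subgroupOf (centralizer {γ})).index ≤ 2 := h3
    by_contra h7
    have h8 : Nat.card (G.subgroupOf (centralizer {γ})) * (G.subgroupOf (centralizer {γ})).index
        ≤ Nat.card (G.subgroupOf (centralizer {γ})) * 2 := Nat.mul_le_mul_left _ h6
    omega
  have h5 : Nat.card (G.subgroupOf (centralizer {γ})) ≤ Nat.card (normalizer (E : Set G)) := by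
    apply Nat.card_le_card_of_injective (fun x : G.subgroupOf (centralizer {γ}) =>
      (⟨⟨((x : centralizer {γ}) : Equiv.Perm α), x.2⟩, by
        have hx : (⟨((x : centralizer {γ}) : Equiv.Perm α), x.2⟩ : G) * g = g *
            (⟨((x : centralizer {γ}) : Equiv.Perm α), x.2⟩ : G) := by
          apply Subtype.ext
          exact mem_centralizer_singleton_iff.1 (x : centralizer {γ}).2
        set y : G := ⟨((x : centralizer {γ}) : Equiv.Perm α), x.2⟩
        have hy : ∀ z ∈ E, y * z * y⁻¹ = z := by
          intro z hz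
          obtain ⟨m, hm⟩ := mem_zpowers_iff.1 (hg ⟨z, hz⟩)
          have h6 : (g : G) ^ m = z := congrArg Subtype.val hm
          rw [← h6, mul_inv_eq_iff_eq_mul]
          exact ((show Commute y g from hx).zpow_right m).eq
        rw [mem_normalizer_iff]
        intro z
        constructor
        · intro hz
          rw [hy z hz]
          exact hz
        · intro hz
          have h7 := hy _ hz
          have h8 : y * z * y⁻¹ = z := by
            have h9 : y * (y * z * y⁻¹) = y * z := by
              calc _ = (y * (y * z * y⁻¹) * y⁻¹) * y := by group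
                _ = _ := by rw [h7]; group
            exact mul_left_cancel h9
          rwa [h8] at hz⟩ : normalizer (E : Set G)))
    intro x x' hxx
    simp only [Subtype.mk.injEq] at hxx
    exact Subtype.ext (Subtype.ext (congrArg (Subtype.val : G → Equiv.Perm α) hxx))
  rw [hNE] at h5
  have h6 : e ^ 2 ≤ 2 * e := h4.trans h5
  have h7 : e ≤ 2 := by
    rw [sq] at h6
    exact Nat.le_of_mul_le_mul_right h6 (by omega)
  omega

end Perm

end Cfsg.Agent.H660.PrimeDegTI
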