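import Mathlib
import Cfsg.Prelude.Def_Characters
import Cfsg.Prelude.Def_Blocks
import Cfsg.Prelude.Def_Sporadic
import Cfsg.Agent.H660.PrimeDegSimple
import Cfsg.Agent.H660.PrimeDegTI
import Cfsg.Agent.H660.CycleMatrix
import Cfsg.Agent.H660.PSLPrime
import Cfsg.Agent.GH.C2GrowG
import Cfsg.Agent.PermutationGroups.PrimeInvolution
import Cfsg.Agent.S0252
import Cfsg.Agent.S0253
import Cfsg.Agent.S0255

/-!
# Transitive groups of prime degree `p` with a unique irreducible character of degree `p` and
TI complement: reduction to the simple groups with a subgroup of prime index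
-/

set_option autoImplicit false
open Cfsg Subgroup MulAction

namespace Cfsg.Agent.H660.PrimeDegFinal

/-- The conclusion of the classification of the simple groups with a subgroup of prime index. -/
def Concl (G : Type*) [Group G] (p : ℕ) : Prop :=
  (5 ≤ p ∧ Nonempty (G ≃* alternatingGroup (Fin p))) ∨
    (∃ (d : ℕ) (F : Type) (_ : Field F) (_ : Fintype F), 2 ≤ d ∧
      Fintype.card F ^ d - 1 = p * (Fintype.card F - 1) ∧
      Nonempty (G ≃* Matrix.ProjectiveSpecialLinearGroup (Fin d) F)) ∨
    (p = 11 ∧ (Nonempty (G ≃* Matrix.ProjectiveSpecialLinearGroup (Fin 2) (ZMod 11)) ∨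
      Cfsg.IsM11 G)) ∨
    (p = 23 ∧ Cfsg.IsM23 G)

/-- The conclusion of `S4724`. -/
def Goal (G : Type*) [Group G] (p : ℕ) : Prop :=
  (p = 5 ∨ p = 7 ∨ p = 11) ∧ ∃ (F : Type) (_ : Field F) (_ : Fintype F), Fintype.card F = p ∧
    Nonempty (G ≃* Matrix.ProjectiveSpecialLinearGroup (Fin 2) F)

section abstract

variable {G : Type*} [Group G] [Finite G] {p : ℕ}

theorem card_sylow_eq (r : ℕ) (hr : r.Prime) (h3 : 3 ≤ r) (E : Subgroup G) (hE : Nat.card E = r)
    (hN : Nat.card (normalizer (E : Set G)) = 2 * r) (n : ℕ) (hn : Nat.card G = n * (2 * r)) :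
    n % r = 1 := by
  have hrf : Fact r.Prime := ⟨hr⟩
  have hf := PrimeDegTI.factorization_eq_one hr h3 E hE hN
  have hEc : Nat.card E = r ^ (Nat.card G).factorization r := by rw [hf, pow_one, hE]
  have h1 := card_sylow_modEq_one r G
  have h2 := (Sylow.ofCard E hEc).card_eq_index_normalizer
  have h3' : (normalizer (E : Set G)).index = n := by
    have h4 := (normalizer (E : Set G)).card_mul_index
    rw [hN, hn, mul_comm n] at h4
    exact Nat.eq_of_mul_eq_mul_left (by omega) h4
  have h5 : Nat.card (Sylow r G) = n := by rw [h2]; exact h3'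
  rw [h5] at h1
  have h6 : n % r = 1 % r := h1
  rw [h6, Nat.mod_eq_of_lt (by omega)]

/-- The case of `SL_2` in characteristic two. -/
theorem two_case {F : Type*} [Field F] [Fintype F] (h2F : (2 : F) = 0)
    (E : Subgroup (Matrix.SpecialLinearGroup (Fin 2) F)) (hE : Nat.card E = 2)
    (hN : Nat.card (normalizer (E : Set (Matrix.SpecialLinearGroup (Fin 2) F))) = 4) :
    Fintype.card F ≤ 4 := by
  classical
  have hnt : Nontrivial E := by
    rw [← Finite.one_lt_card_iff_nontrivial, hE]; norm_num
  obtain ⟨t, ht1⟩ := exists_ne (1 : E)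
  have htt : (t : Matrix.SpecialLinearGroup (Fin 2) F) * t = 1 := by
    have h1 : t ^ 2 = 1 := by
      have h0 : t ^ Nat.card E = 1 := pow_card_eq_one'
      rwa [hE] at h0
    have h2 := congrArg Subtype.val h1
    rw [sq] at h2
    exact h2
  set T : Matrix (Fin 2) (Fin 2) F := (t : Matrix.SpecialLinearGroup (Fin 2) F).1 with hT
  have hTT : T * T = 1 := congrArg Subtype.val htt
  have hT1 : T ≠ 1 := by
    intro h
    apply ht1
    apply Subtype.ext
    exact Subtype.ext h
  have hdet : T.det = 1 := (t : Matrix.SpecialLinearGroup (Fin 2) F).2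
  rw [Matrix.det_fin_two] at hdet
  have h00 := congrFun (congrFun hTT 0) 0
  have h01 := congrFun (congrFun hTT 0) 1
  have h10 := congrFun (congrFun hTT 1) 0
  have h11 := congrFun (congrFun hTT 1) 1
  simp only [Matrix.mul_apply, Fin.sum_univ_two, Matrix.one_apply_eq] at h00 h11
  have ho : (1 : Matrix (Fin 2) (Fin 2) F) 0 1 = 0 := by simp
  have ho' : (1 : Matrix (Fin 2) (Fin 2) F) 1 0 = 0 := by simp
  rw [ho, Matrix.mul_apply, Fin.sum_univ_two] at h01
  rw [ho', Matrix.mul_apply, Fin.sum_univ_two] at h10
  have htr : T 0 0 + T 1 1 = 0 := by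
    by_contra hne
    have hb : T 0 1 = 0 := by
      have : T 0 1 * (T 0 0 + T 1 1) = 0 := by linear_combination h01
      exact (mul_eq_zero.1 this).resolve_right hne
    rw [hb] at h00 hdet
    have h5 : T 0 0 = T 1 1 := by
      have h6 : T 0 0 * T 0 0 = 1 := by linear_combination h00
      have h7 : T 0 0 * T 1 1 = 1 := by linear_combination hdet
      have h8 : T 0 0 ≠ 0 := by
        intro h
        rw [h] at h6
        simp at h6
      exact mul_left_cancel₀ h8 (h6.trans h7.symm)
    apply hne
    rw [h5]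
    linear_combination (T 1 1) * h2F
  have hdetx : ∀ x : F, (1 + x • (T - 1)).det = 1 := by
    intro x
    rw [Matrix.det_fin_two]
    simp only [Matrix.add_apply, Matrix.smul_apply, Matrix.sub_apply, Matrix.one_apply_eq, ho, ho',
      smul_eq_mul]
    linear_combination (x - x ^ 2) * htr + x ^ 2 * hdet + (x ^ 2 - x) * h2F
  have hcomm : ∀ x : F, T * (1 + x • (T - 1)) = (1 + x • (T - 1)) * T := by
    intro x
    rw [mul_add, add_mul, mul_one, one_mul, mul_smul_comm, smul_mul_assoc, mul_sub, sub_mul,
      mul_one, one_mul]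
  let Y : F → Matrix.SpecialLinearGroup (Fin 2) F := fun x => ⟨1 + x • (T - 1), hdetx x⟩
  have hmem : ∀ x : F, Y x ∈
      normalizer (E : Set (Matrix.SpecialLinearGroup (Fin 2) F)) := by
    intro x
    have hyt' : Y x * t = t * Y x := Subtype.ext (hcomm x).symm
    generalize Y x = y at hyt' ⊢
    have hyt : y * t = t * y := hyt'
    have hEt : ∀ z, z ∈ E ↔ z = 1 ∨ z = t := by
      intro z
      constructor
      · intro hz
        have hcard : Nat.card E = 2 := hE
        rw [Nat.card_eq_two_iff' (1 : E)] at hcard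
        obtain ⟨w, hw, hwu⟩ := hcard
        by_cases h : (⟨z, hz⟩ : E) = 1
        · left; exact congrArg Subtype.val h
        · right
          have h1 := hwu _ h
          have h2 := hwu _ ht1
          exact congrArg Subtype.val (h1.trans h2.symm)
      · rintro (rfl | rfl)
        · exact E.one_mem
        · exact t.2
    rw [mem_normalizer_iff]
    intro z
    rw [hEt, hEt]
    constructor
    · rintro (rfl | rfl)
      · left; group
      · right
        rw [hyt]; group
    · rintro (h | h)
      · left
        rw [mul_inv_eq_one] at h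
        exact mul_right_injective y (by simpa using h)
      · right
        rw [mul_inv_eq_iff_eq_mul, ← hyt] at h
        exact mul_left_cancel h
  rw [← hN, ← Nat.card_eq_fintype_card]
  apply Nat.card_le_card_of_injective (fun x : F => (⟨_, hmem x⟩ :
    normalizer (E : Set (Matrix.SpecialLinearGroup (Fin 2) F))))
  intro x x' hxx
  have h1 : (1 + x • (T - 1)) = (1 + x' • (T - 1)) :=
    congrArg (fun z : normalizer (E : Set (Matrix.SpecialLinearGroup (Fin 2) F)) => z.1.1) hxx
  have h2 : (x - x') • (T - 1) = 0 := by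
    rw [sub_smul, sub_eq_zero]
    exact add_left_cancel h1
  rcases smul_eq_zero.1 h2 with h3 | h3
  · exact sub_eq_zero.1 h3
  · exact absurd (sub_eq_zero.1 h3) hT1

end abstract

theorem main {α : Type*} [Fintype α] [DecidableEq α] {p : ℕ} [hpf : Fact p.Prime]
    (hα : Fintype.card α = p) (G : Subgroup (Equiv.Perm α)) [MulAction.IsPretransitive G α]
    (hcls : IsSimpleGroup G → ¬ IsMulCommutative G → ∀ H : Subgroup G, H.index = p → Concl G p)
    (huniq : ∃! χ : Cfsg.IrrCharacter G, Cfsg.charDegree (χ : G → ℂ) = p)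
    (P : Sylow p G) (E : Subgroup G)
    (hPE : (P : Subgroup G) ⊔ E = Subgroup.normalizer ((P : Subgroup G) : Set G))
    (hPE' : (P : Subgroup G) ⊓ E = ⊥)
    (hNE : Nat.card (Subgroup.normalizer (E : Set G)) = 2 * Nat.card E) : Goal G p := by
  classical
  have hp : p.Prime := hpf.out
  have hΩ : Nat.card α = p := by rw [Nat.card_eq_fintype_card, hα]
  have hne : Nonempty α := by
    rw [← Finite.card_pos_iff, hΩ]; exact hp.pos
  have hdvd : p ∣ Nat.card G := by
    obtain ⟨a⟩ := hne
    have h1 := index_stabilizer_of_transitive G a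
    rw [← hΩ, ← h1]
    exact Subgroup.index_dvd_card _
  have hGle : Nat.card G ∣ p.factorial := by
    have h1 := G.card_subgroup_dvd_card
    rwa [Nat.card_perm, hΩ] at h1
  have hp2 : ¬ p ^ 2 ∣ Nat.card G := by
    obtain ⟨m, hm, hmp⟩ := Cfsg.Agent.PermutationGroups.PrimeInvolution.card_eq_mul hα G
    rw [hm, sq]
    intro h
    have h1 := Nat.dvd_of_mul_dvd_mul_right hp.pos h
    rw [Nat.coprime_comm, Nat.Prime.coprime_iff_not_dvd hp] at hmp
    exact hmp h1
  have hs := PrimeDegSimple.isSimpleGroup (Ω := α) hΩ hp2 huniq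
  have hPc : Nat.card (P : Subgroup G) = p :=
    Cfsg.Agent.SporadicA.DegreePrime.card_sylow_of_factorization p P hdvd hp2
  have hsq : p ^ 2 ≤ Nat.card G := by
    obtain ⟨ψ, hψ, -⟩ := id huniq
    have hψ1 : (ψ : G → ℂ) 1 = p := by
      obtain ⟨n, hn0, hn⟩ := Cfsg.Agent.Characters.Core.isIrr_apply_one ψ.2
      rw [Cfsg.Agent.Blocks.Basic.charDegree_of_eq hn] at hψ
      rw [hn, hψ]
    exact PrimeDegSimple.sq_le_card ψ.2 hψ1
  have hna : ¬ IsMulCommutative G := by
    intro hc
    have hn : (P : Subgroup G).Normal := ⟨fun x hx g => by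
      rw [hc.1.comm g x, mul_assoc, mul_inv_cancel, mul_one]
      exact hx⟩
    rcases hs.eq_bot_or_eq_top_of_normal _ hn with h | h
    · rw [h, Subgroup.card_bot] at hPc
      exact hp.one_lt.ne hPc
    · rw [h, Subgroup.card_top] at hPc
      rw [hPc] at hsq
      nlinarith [hp.one_lt]
  have hEN : E ≤ normalizer ((P : Subgroup G) : Set G) := by
    rw [← hPE]; exact le_sup_right
  have hNc : Nat.card (normalizer ((P : Subgroup G) : Set G)) = p * Nat.card E := by
    have h1 := Cfsg.Agent.GH.C2GrowG.card_sup hEN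
    rw [inf_comm, hPE', Subgroup.card_bot, mul_one, sup_comm, hPE, hPc, mul_comm] at h1
    exact h1
  have he : Nat.card G / p % p = Nat.card E := by
    have h1 : Nat.card (normalizer ((P : Subgroup G) : Set G)) = p * (Nat.card G / p % p) :=
      Cfsg.Agent.SporadicA.DegreePrime.card_normalizer (Ω := α) p hΩ hdvd hp2 P
    rw [hNc] at h1
    exact (Nat.eq_of_mul_eq_mul_left hp.pos h1).symm
  obtain ⟨a⟩ := hne
  have hH : (stabilizer G a).index = p := by
    rw [index_stabilizer_of_transitive, hΩ]
  rcases hcls hs hna _ hH with ⟨hp5, ⟨f⟩⟩ | ⟨d, F, hF, hFF, hd2, hd, ⟨f⟩⟩ | ⟨hp11, h⟩ | ⟨hp23, h⟩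
  · -- the alternating groups
    have hnt : Nontrivial (Fin p) := Fin.nontrivial_iff_two_le.2 (by omega)
    have h2G : 2 * Nat.card G = p.factorial := by
      rw [Nat.card_congr f.toEquiv, Nat.card_eq_fintype_card, two_mul_card_alternatingGroup,
        Fintype.card_perm, Fintype.card_fin]
    have hidx : G.index = 2 := by
      have h1 := G.card_mul_index
      rw [Nat.card_perm, hΩ, ← h2G, mul_comm 2] at h1
      exact Nat.eq_of_mul_eq_mul_left Nat.card_pos h1
    have he2 : 2 * Nat.card E + 1 = p := by
      obtain ⟨N, hN⟩ := hdvd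
      have h1 : Nat.card G / p = N := by rw [hN, Nat.mul_div_cancel_left _ hp.pos]
      have h2 : 2 * N = (p - 1).factorial := by
        rw [hN, ← Nat.mul_factorial_pred hp.ne_zero] at h2G
        apply Nat.eq_of_mul_eq_mul_left hp.pos
        rw [← h2G]; ring
      have h3 := congrArg (Nat.cast : ℕ → ZMod p) h2
      rw [ZMod.wilsons_lemma] at h3
      have h4 : ((2 * Nat.card E + 1 : ℕ) : ZMod p) = 0 := by
        have h5 : (Nat.card E : ZMod p) = (N : ZMod p) := by
          rw [← he, h1, ZMod.natCast_mod]
        push_cast at h3 ⊢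
        rw [h5, h3]
        ring
      rw [ZMod.natCast_eq_zero_iff] at h4
      have h6 : Nat.card E < p := by rw [← he]; exact Nat.mod_lt _ hp.pos
      obtain ⟨c, hc⟩ := h4
      have hc2 : c < 2 := by
        by_contra hcc
        have : p * 2 ≤ p * c := Nat.mul_le_mul_left _ (by omega)
        omega
      have hc0 : c ≠ 0 := by
        rintro rfl
        omega
      have hc1 : c = 1 := by omega
      rw [hc, hc1, mul_one]
    have hp5' := PrimeDegTI.alt_case hα hp5 G hidx (P : Subgroup G) E hPc hPE' hEN he2 hNE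
    subst hp5'
    have hcard : Fintype.card (ZMod 5) = 5 := ZMod.card 5
    obtain ⟨e5⟩ := Cfsg.Agent.S0253.result (F := ZMod 5) hcard
    exact ⟨Or.inl rfl, ZMod 5, inferInstance, inferInstance, hcard, ⟨f.trans e5.symm⟩⟩
  · -- the linear groups
    have hgcd : ∀ c : Fˣ, c ^ d = 1 → c = 1 := fun c hc => PSLPrime.pow_eq_one hp hd2 hd c hc
    obtain ⟨φ⟩ := PSLPrime.nonempty_equiv (F := F) (n := d) (by omega) hgcd
    let ψ : G ≃* Matrix.SpecialLinearGroup (Fin d) F := f.trans φ.symm
    have hed : Nat.card E = d := by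
      rw [← he, Nat.card_congr ψ.toEquiv]
      exact PSLPrime.card_SL_div_mod hp hd2 hd
    have hq2 : 2 ≤ Fintype.card F := Fintype.one_lt_card
    have hdp := PSLPrime.prime_n hp hq2 hd2 hd
    have hsum := PSLPrime.sum_eq hq2 hd
    rcases Nat.lt_or_ge 2 d with h3 | h3
    · obtain ⟨hF2, hd3⟩ := CycleMatrix.card_eq_two (F := F) hdp h3 hgcd (by
        intro u w hw huw
        have h1 := PrimeDegTI.sq_mem_zpowers hdp h3 E hed (by rw [hNE, hed]) (ψ.symm u) (ψ.symm w)
          ((MulEquiv.orderOf_eq ψ.symm w).trans hw) (by rw [← map_mul, huw, map_mul])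
        obtain ⟨k, hk⟩ := mem_zpowers_iff.1 h1
        rw [← map_zpow, ← map_pow] at hk
        exact mem_zpowers_iff.2 ⟨k, ψ.symm.injective hk⟩)
      subst hd3
      rw [hF2] at hsum
      have hp7 : p = 7 := by
        rw [← hsum]
        decide
      subst hp7
      have hcard : Fintype.card (ZMod 7) = 7 := ZMod.card 7
      obtain ⟨e7⟩ := Cfsg.Agent.S0255.result (F := ZMod 7) (K := F) hcard hF2
      exact ⟨Or.inr (Or.inl rfl), ZMod 7, inferInstance, inferInstance, hcard,
        ⟨f.trans e7.symm⟩⟩
    · have hd' : d = 2 := by omega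
      subst hd'
      have hpq : p = Fintype.card F + 1 := by
        rw [← hsum, Finset.sum_range_succ, Finset.sum_range_one, pow_zero, pow_one]
        ring
      have hp2' : p ≠ 2 := by omega
      have hodd : Odd p := hp.odd_of_ne_two hp2'
      have heven : Fintype.card F % 2 = 0 := by
        obtain ⟨k, hk⟩ := hodd
        omega
      have hchar : ringChar F = 2 := FiniteField.even_card_iff_char_two.2 heven
      have h2F : (2 : F) = 0 := by
        have := ringChar.Nat.cast_ringChar (R := F)
        rw [hchar] at this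
        exact_mod_cast this
      have hmapc : Nat.card (E.map ψ.toMonoidHom) = 2 := by
        rw [Subgroup.card_map_of_injective ψ.injective, hed]
      have hmapN : Nat.card (normalizer ((E.map ψ.toMonoidHom : Subgroup _) :
          Set (Matrix.SpecialLinearGroup (Fin 2) F))) = 4 := by
        have h1 := Subgroup.map_equiv_normalizer_eq E ψ
        have h2 : Nat.card ((normalizer (E : Set G)).map ψ.toMonoidHom) = 4 := by
          rw [Subgroup.card_map_of_injective ψ.injective, hNE, hed]
        rw [h1] at h2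
        exact h2
      have hle := two_case h2F _ hmapc hmapN
      have hp5 : p = 5 := by
        have h1 : p ≤ 5 := by omega
        have h2 : p ≠ 3 := by
          intro h
          subst h
          have h4 := Nat.le_of_dvd (by decide) hGle
          norm_num [Nat.factorial] at h4 hsq
          omega
        have h4 : p ≠ 4 := by
          rintro rfl
          revert hp
          decide
        omega
      subst hp5
      have hF4 : Fintype.card F = 4 := by omega
      obtain ⟨e4⟩ := Cfsg.Agent.S0252.result (F := F) hF4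
      have hcard : Fintype.card (ZMod 5) = 5 := ZMod.card 5
      obtain ⟨e5⟩ := Cfsg.Agent.S0253.result (F := ZMod 5) hcard
      exact ⟨Or.inl rfl, ZMod 5, inferInstance, inferInstance, hcard,
        ⟨(f.trans e4).trans e5.symm⟩⟩
  · subst hp11
    rcases h with ⟨⟨f⟩⟩ | h
    · exact ⟨Or.inr (Or.inr rfl), ZMod 11, inferInstance, inferInstance, ZMod.card 11, ⟨f⟩⟩
    · exfalso
      have hE5 : Nat.card E = 5 := by
        rw [← he, h.2]
      have := card_sylow_eq 5 (by norm_num) (by norm_num) E hE5 (by rw [hNE, hE5]) 792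
        (by rw [h.2])
      norm_num at this
  · subst hp23
    exfalso
    have hE11 : Nat.card E = 11 := by
      rw [← he, h.2]
    have := card_sylow_eq 11 (by norm_num) (by norm_num) E hE11 (by rw [hNE, hE11]) 463680
      (by rw [h.2])
    norm_num at this

end Cfsg.Agent.H660.PrimeDegFinal
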