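import Cfsg.Agent.S0000
import Cfsg.Agent.H660.TSTits
import Cfsg.Agent.H660.TSU6
import Cfsg.Agent.H660.TSM22

/-!
# S5741, tasks B6 and B7 (helper660): the results that use S0000 in their final form
-/

set_option autoImplicit false

namespace Cfsg.Agent.H660.TSMain

open Cfsg Cfsg.Agent.OrdDiv Cfsg.Agent.H944.TS

universe u

/-- `L₂(25) ≤ ²F₄(2)'` -/
theorem tits_psl : Sub.{u} .tits (.psl 2 25) :=
  Cfsg.Agent.H660.TSTits.tits_psl_of (fun _ _ _ _ => Cfsg.Agent.S0000.result)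

/-- `²F₄(2)' ≤ F₄(2)` -/
theorem f4_tits : Sub.{u} (.f4 2) .tits := Cfsg.Agent.H660.TSTits.f4_tits

/-- `U₄(3) ≤ U₆(2)` -/
theorem u6_u4 : Sub.{u} (.psu 6 2) (.psu 4 3) :=
  Cfsg.Agent.H660.TSU6.u6_u4_of (fun _ _ _ _ => Cfsg.Agent.S0000.result)

/-- `M₂₂ ≤ U₆(2)` -/
theorem u6_m22 : Sub.{u} (.psu 6 2) .m22 := Cfsg.Agent.H660.TSM22.u6_m22

end Cfsg.Agent.H660.TSMain
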